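import Mathlib
import Cfsg.Agent.H78.Icosahedral
import Cfsg.Agent.H6.SmallOrder
import Cfsg.Agent.H6.Basic

/-!
The binary icosahedral group: groups generated by `x`, `y` with `x^3 = y^5 = 1` and `(x*y)^2` a
central element of order two have order 120, and are all isomorphic.
-/

set_option autoImplicit false
set_option linter.style.haveILetI false

namespace Cfsg.Agent.H78

/-- The relators of the binary icosahedral presentation. -/
abbrev binRels : Set (FreeGroup (Fin 3)) :=
  {FreeGroup.of (0 : Fin 3) ^ 3, FreeGroup.of (1 : Fin 3) ^ 5, FreeGroup.of (2 : Fin 3) ^ 2,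
    (FreeGroup.of (2 : Fin 3))⁻¹ * FreeGroup.of 0 * FreeGroup.of 2 * (FreeGroup.of (0 : Fin 3))⁻¹,
    (FreeGroup.of (2 : Fin 3))⁻¹ * FreeGroup.of 1 * FreeGroup.of 2 * (FreeGroup.of (1 : Fin 3))⁻¹,
    (FreeGroup.of (0 : Fin 3) * FreeGroup.of 1) ^ 2 * (FreeGroup.of (2 : Fin 3))⁻¹}

/-- Data making `G` a binary icosahedral group. -/
structure BinIcosa {G : Type*} [Group G] (x y z : G) : Prop where
  hx : x ^ 3 = 1
  hy : y ^ 5 = 1
  hz : z ^ 2 = 1
  hxz : Commute x z
  hyz : Commute y z
  hxy : (x * y) ^ 2 = z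
  hz1 : z ≠ 1
  hgen : Subgroup.closure ({x, y} : Set G) = ⊤

namespace BinIcosa

variable {G : Type*} [Group G] {x y z : G}

theorem mem_center (h : BinIcosa x y z) : z ∈ Subgroup.center G := by
  rw [Subgroup.mem_center_iff]
  intro g
  have hg : g ∈ Subgroup.centralizer ({z} : Set G) := by
    have hle : Subgroup.closure ({x, y} : Set G) ≤ Subgroup.centralizer ({z} : Set G) := by
      rw [Subgroup.closure_le]
      rintro a (rfl | rfl)
      · exact Subgroup.mem_centralizer_singleton_iff.mpr h.hxz.eq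
      · exact Subgroup.mem_centralizer_singleton_iff.mpr h.hyz.eq
    exact hle (h.hgen ▸ Subgroup.mem_top g)
  exact Subgroup.mem_centralizer_singleton_iff.mp hg

theorem not_isSolvable (h : BinIcosa x y z) : ¬ Group.IsSolvable G := by
  intro hs
  haveI : Nontrivial G := ⟨z, 1, h.hz1⟩
  refine (ne_of_lt (Group.IsSolvable.commutator_lt_top_of_nontrivial G)) ?_
  have hle : ({x, y} : Set G) ⊆ (Abelianization.of (G := G)).ker := by
    have h3 := congrArg Abelianization.of h.hx
    have h5 := congrArg Abelianization.of h.hy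
    have h2 := congrArg Abelianization.of h.hz
    have hab := congrArg Abelianization.of h.hxy
    simp only [map_pow, map_mul, map_one] at h3 h5 h2 hab
    rw [← hab, ← pow_mul, mul_pow] at h2
    have hXY : Abelianization.of x = Abelianization.of y := by
      rw [show (2 * 2 : ℕ) = 3 + 1 by rfl, pow_succ, h3, one_mul] at h2
      calc Abelianization.of x = Abelianization.of x * Abelianization.of y ^ 5 := by
            rw [h5, mul_one]
        _ = (Abelianization.of x * Abelianization.of y ^ 4) * Abelianization.of y := by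
            rw [mul_assoc, ← pow_succ]
        _ = Abelianization.of y := by rw [h2, one_mul]
    have hX : Abelianization.of x = 1 := by
      rw [← hXY] at h5
      have h10 : Abelianization.of x ^ 10 = 1 := by rw [show (10 : ℕ) = 5 * 2 by rfl, pow_mul, h5, one_pow]
      have h9 : Abelianization.of x ^ 9 = 1 := by rw [show (9 : ℕ) = 3 * 3 by rfl, pow_mul, h3, one_pow]
      rw [pow_succ, h9, one_mul] at h10
      exact h10
    rintro a (rfl | rfl)
    · exact hX
    · exact hXY.symm.trans hX
  have h' := (Subgroup.closure_le _).2 hle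
  rw [h.hgen, Abelianization.ker_of] at h'
  exact top_le_iff.1 h'

theorem card_eq (h : BinIcosa x y z) : Finite G ∧ Nat.card G = 120 := by
  set Z := Subgroup.zpowers z with hZdef
  have hZc : Z ≤ Subgroup.center G := Subgroup.zpowers_le.mpr h.mem_center
  haveI : Z.Normal := ⟨fun n hn g => by
    rwa [Subgroup.mem_center_iff.mp (hZc hn) g, mul_inv_cancel_right]⟩
  have hord : orderOf z = 2 := orderOf_eq_prime h.hz h.hz1
  have hcZ : Nat.card Z = 2 := by rw [hZdef, Nat.card_zpowers, hord]
  haveI : Finite Z := Nat.finite_of_card_ne_zero (by omega)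
  set π := QuotientGroup.mk' Z with hπ
  have hgq : Subgroup.closure ({π x, π y} : Set (G ⧸ Z)) = ⊤ := by
    have himg : π '' ({x, y} : Set G) = {π x, π y} := by rw [Set.image_pair]
    rw [← himg, ← MonoidHom.map_closure, h.hgen,
      Subgroup.map_top_of_surjective _ (QuotientGroup.mk'_surjective Z)]
  obtain ⟨hfin, hle⟩ := icosahedral_card_le (x := π x) (y := π y)
    (by rw [← map_pow, h.hx, map_one]) (by rw [← map_pow, h.hy, map_one])
    (by rw [← map_mul, ← map_pow, h.hxy]; exact (QuotientGroup.eq_one_iff z).mpr (Subgroup.mem_zpowers z))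
    hgq
  have hG : Finite G := Finite.of_subgroup_quotient Z
  refine ⟨hG, ?_⟩
  have hns : ¬ Group.IsSolvable (G ⧸ Z) := by
    intro hs
    haveI : Group.IsSolvable Z := by
      have : IsMulCommutative Z := by rw [hZdef]; infer_instance
      exact isSolvable_of_comm fun a b => mul_comm' a b
    exact h.not_isSolvable (Group.isSolvable_of_ker_le_range Z.subtype π (by simp [hπ]))
  have h60 : Nat.card (G ⧸ Z) = 60 := (H6.nonempty_equiv_alternating_five hns hle).1
  rw [Subgroup.card_eq_card_quotient_mul_card_subgroup Z, h60, hcZ]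

theorem rels (h : BinIcosa x y z) : ∀ r ∈ binRels, FreeGroup.lift ![x, y, z] r = 1 := by
  rintro r (rfl | rfl | rfl | rfl | rfl | rfl) <;>
    simp only [map_mul, map_inv, map_pow, FreeGroup.lift_apply_of, Matrix.cons_val_zero,
      Matrix.cons_val_one, Matrix.cons_val]
  · exact h.hx
  · exact h.hy
  · exact h.hz
  · rw [mul_assoc _ x z, h.hxz.eq]; group
  · rw [mul_assoc _ y z, h.hyz.eq]; group
  · rw [h.hxy, mul_inv_cancel]

end BinIcosa

theorem presented_binIcosa {G : Type*} [Group G] {x y z : G} (h : BinIcosa x y z) :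
    BinIcosa (PresentedGroup.of (rels := binRels) 0) (PresentedGroup.of 1) (PresentedGroup.of 2) := by
  have rel : ∀ r ∈ binRels, PresentedGroup.mk binRels r = 1 := fun r hr =>
    PresentedGroup.one_of_mem hr
  have hxy : (PresentedGroup.of (rels := binRels) 0 * PresentedGroup.of 1) ^ 2 =
      PresentedGroup.of 2 := by
    have h' := rel _ (Set.mem_insert_of_mem _ (Set.mem_insert_of_mem _ (Set.mem_insert_of_mem _
      (Set.mem_insert_of_mem _ (Set.mem_insert_of_mem _ (Set.mem_singleton _))))))
    rw [map_mul, map_pow, map_mul, map_inv, mul_inv_eq_one] at h'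
    exact h'
  refine ⟨?_, ?_, ?_, ?_, ?_, hxy, ?_, ?_⟩
  · have h' := rel _ (Set.mem_insert (FreeGroup.of (0 : Fin 3) ^ 3) _)
    rwa [map_pow] at h'
  · have h' := rel _ (Set.mem_insert_of_mem _ (Set.mem_insert (FreeGroup.of (1 : Fin 3) ^ 5) _))
    rwa [map_pow] at h'
  · have h' := rel _ (Set.mem_insert_of_mem _ (Set.mem_insert_of_mem _
      (Set.mem_insert (FreeGroup.of (2 : Fin 3) ^ 2) _)))
    rwa [map_pow] at h'
  · have h' := rel _ (Set.mem_insert_of_mem _ (Set.mem_insert_of_mem _ (Set.mem_insert_of_mem _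
      (Set.mem_insert _ _))))
    rw [map_mul, map_mul, map_mul, map_inv, map_inv, mul_inv_eq_one, mul_assoc,
      inv_mul_eq_iff_eq_mul] at h'
    exact h'
  · have h' := rel _ (Set.mem_insert_of_mem _ (Set.mem_insert_of_mem _ (Set.mem_insert_of_mem _
      (Set.mem_insert_of_mem _ (Set.mem_insert _ _)))))
    rw [map_mul, map_mul, map_mul, map_inv, map_inv, mul_inv_eq_one, mul_assoc,
      inv_mul_eq_iff_eq_mul] at h'
    exact h'
  · intro h1
    have h' := congrArg (PresentedGroup.toGroup h.rels) h1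
    rw [PresentedGroup.toGroup.of, map_one] at h'
    exact h.hz1 (by simpa using h')
  · rw [eq_top_iff, ← PresentedGroup.closure_range_of binRels, Subgroup.closure_le]
    rintro _ ⟨i, rfl⟩
    fin_cases i
    · exact Subgroup.subset_closure (Or.inl rfl)
    · exact Subgroup.subset_closure (Or.inr rfl)
    · show PresentedGroup.of 2 ∈ _
      rw [← hxy]
      refine pow_mem (mul_mem ?_ ?_) 2
      · exact Subgroup.subset_closure (Or.inl rfl)
      · exact Subgroup.subset_closure (Or.inr rfl)

/-- Every binary icosahedral group is isomorphic to the presented one. -/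
theorem BinIcosa.nonempty_equiv {G : Type*} [Group G] {x y z : G} (h : BinIcosa x y z) :
    Nonempty (PresentedGroup binRels ≃* G) := by
  obtain ⟨hP, hPc⟩ := (presented_binIcosa h).card_eq
  obtain ⟨hG, hGc⟩ := h.card_eq
  let φ := PresentedGroup.toGroup h.rels
  have hs : Function.Surjective φ := by
    rw [← MonoidHom.range_eq_top, eq_top_iff, ← h.hgen, Subgroup.closure_le]
    rintro a (rfl | rfl)
    · exact ⟨PresentedGroup.of 0, by simp [φ, PresentedGroup.toGroup.of]⟩
    · exact ⟨PresentedGroup.of 1, by simp [φ, PresentedGroup.toGroup.of]⟩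
  exact ⟨MulEquiv.ofBijective φ
    ((Nat.bijective_iff_surjective_and_card φ).mpr ⟨hs, hPc.trans hGc.symm⟩)⟩

/-- An explicit pair of matrices gives a binary icosahedral subgroup of `SL(2,F)`. -/
theorem binIcosa_closure {G : Type*} [Group G] {X Y : G} {Z : G} (hX : X ^ 3 = 1) (hY : Y ^ 5 = 1)
    (hZ : Z ^ 2 = 1) (hxz : Commute X Z) (hyz : Commute Y Z) (hxy : (X * Y) ^ 2 = Z) (hZ1 : Z ≠ 1) :
    BinIcosa (G := Subgroup.closure ({X, Y} : Set G))
      ⟨X, Subgroup.subset_closure (Or.inl rfl)⟩ ⟨Y, Subgroup.subset_closure (Or.inr rfl)⟩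
      ((⟨X, Subgroup.subset_closure (Or.inl rfl)⟩ * ⟨Y, Subgroup.subset_closure (Or.inr rfl)⟩) ^ 2)
    := by
  refine ⟨Subtype.ext hX, Subtype.ext hY, Subtype.ext ?_, Subtype.ext ?_, Subtype.ext ?_, rfl,
    fun h => hZ1 ?_, ?_⟩
  · show ((X * Y) ^ 2) ^ 2 = 1
    rw [hxy, hZ]
  · show X * (X * Y) ^ 2 = (X * Y) ^ 2 * X
    rw [hxy]; exact hxz.eq
  · show Y * (X * Y) ^ 2 = (X * Y) ^ 2 * Y
    rw [hxy]; exact hyz.eq
  · have h' : (X * Y) ^ 2 = 1 := congrArg Subtype.val h
    rwa [hxy] at h'
  · rw [eq_top_iff]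
    rintro ⟨g, hg⟩ -
    induction hg using Subgroup.closure_induction with
    | mem a ha =>
      rcases ha with rfl | rfl
      · exact Subgroup.subset_closure (Or.inl rfl)
      · exact Subgroup.subset_closure (Or.inr rfl)
    | one => exact one_mem _
    | mul a b ha hb iha ihb => exact mul_mem (iha ) (ihb )
    | inv a ha iha => exact inv_mem iha

local instance : Fact (Nat.Prime 5) := ⟨by norm_num⟩
local instance : Fact (Nat.Prime 11) := ⟨by norm_num⟩

/-- `SL(2,5)` is binary icosahedral. -/
theorem nonempty_equiv_sl2_five :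
    Nonempty (PresentedGroup binRels ≃* Matrix.SpecialLinearGroup (Fin 2) (ZMod 5)) := by
  let X : Matrix.SpecialLinearGroup (Fin 2) (ZMod 5) := H6.sl2 0 4 1 4 (by decide)
  let Y : Matrix.SpecialLinearGroup (Fin 2) (ZMod 5) := H6.sl2 0 1 4 2 (by decide)
  let Z : Matrix.SpecialLinearGroup (Fin 2) (ZMod 5) := H6.sl2 4 0 0 4 (by decide)
  have h := binIcosa_closure (X := X) (Y := Y) (Z := Z) (by decide +kernel) (by decide +kernel)
    (by decide +kernel) (by unfold Commute SemiconjBy; decide +kernel)
    (by unfold Commute SemiconjBy; decide +kernel) (by decide +kernel) (by decide +kernel)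
  obtain ⟨e⟩ := h.nonempty_equiv
  have htop : Subgroup.closure ({X, Y} : Set (Matrix.SpecialLinearGroup (Fin 2) (ZMod 5))) = ⊤ := by
    apply Subgroup.eq_top_of_card_eq
    rw [h.card_eq.2, H6.card_sl2 (q := 5) (ZMod.card 5)]
    norm_num
  exact ⟨e.trans ((MulEquiv.subgroupCongr htop).trans Subgroup.topEquiv)⟩

/-- `SL(2,5)` embeds in `SL(2,11)`. -/
theorem exists_embed_sl2_eleven :
    ∃ ι : Matrix.SpecialLinearGroup (Fin 2) (ZMod 5) →* Matrix.SpecialLinearGroup (Fin 2) (ZMod 11),
      Function.Injective ι := by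
  let X : Matrix.SpecialLinearGroup (Fin 2) (ZMod 11) := H6.sl2 0 10 1 10 (by decide)
  let Y : Matrix.SpecialLinearGroup (Fin 2) (ZMod 11) := H6.sl2 0 3 7 7 (by decide)
  let Z : Matrix.SpecialLinearGroup (Fin 2) (ZMod 11) := H6.sl2 10 0 0 10 (by decide)
  have h := binIcosa_closure (X := X) (Y := Y) (Z := Z) (by decide +kernel) (by decide +kernel)
    (by decide +kernel) (by unfold Commute SemiconjBy; decide +kernel)
    (by unfold Commute SemiconjBy; decide +kernel) (by decide +kernel) (by decide +kernel)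
  obtain ⟨e⟩ := h.nonempty_equiv
  obtain ⟨e5⟩ := nonempty_equiv_sl2_five
  exact ⟨(Subgroup.subtype _).comp (e5.symm.trans e).toMonoidHom,
    (Subgroup.subtype_injective _).comp (e5.symm.trans e).injective⟩

end Cfsg.Agent.H78
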