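import Cfsg.Agent.H78.IndexTwo

/-!
A group of order 24 with at most one involution and no subgroup of index two is `SL₂(3)`.
-/

namespace Cfsg.Agent.H78

open scoped MatrixGroups

/-- The relations of the binary tetrahedral group. -/
structure TetRel {G : Type*} [Group G] (i j t : G) : Prop where
  i4 : i ^ 4 = 1
  jj : j * j = i ^ 2
  ji : j * i = i ^ 3 * j
  ti : t * i = j * t
  tj : t * j = i * j * t
  t3 : t ^ 3 = 1

namespace TetRel

/-- Normal form. -/
def val {G : Type*} [Group G] (i j t : G) (x : Fin 4 × Fin 2 × Fin 3) : G :=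
  i ^ x.1.1 * (j ^ x.2.1.1 * t ^ x.2.2.1)

/-- Right multiplication by `i` on normal forms. -/
def ri : Fin 4 × Fin 2 × Fin 3 → Fin 4 × Fin 2 × Fin 3
  | (a, 0, 0) => (a + 1, 0, 0)
  | (a, 1, 0) => (a + 3, 1, 0)
  | (a, 0, 1) => (a, 1, 1)
  | (a, 1, 1) => (a + 2, 0, 1)
  | (a, 0, 2) => (a + 1, 1, 2)
  | (a, 1, 2) => (a + 1, 0, 2)

/-- Right multiplication by `j` on normal forms. -/
def rj : Fin 4 × Fin 2 × Fin 3 → Fin 4 × Fin 2 × Fin 3
  | (a, 0, 0) => (a, 1, 0)
  | (a, 1, 0) => (a + 2, 0, 0)
  | (a, 0, 1) => (a + 1, 1, 1)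
  | (a, 1, 1) => (a + 1, 0, 1)
  | (a, 0, 2) => (a + 1, 0, 2)
  | (a, 1, 2) => (a + 3, 1, 2)

/-- Right multiplication by `t` on normal forms. -/
def rt : Fin 4 × Fin 2 × Fin 3 → Fin 4 × Fin 2 × Fin 3
  | (a, b, c) => (a, b, c + 1)

variable {G : Type*} [Group G] {i j t : G}

theorem val_zero : val i j t (0, 0, 0) = 1 := by simp [val]

theorem pow_add_fin (h : TetRel i j t) (a k : Fin 4) (g : G) :
    i ^ a.1 * (i ^ k.1 * g) = i ^ (a + k).1 * g := by
  rw [← mul_assoc, ← pow_add, pow_eq_pow_mod (a.1 + k.1) h.i4]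
  rfl

theorem jij (h : TetRel i j t) : j * i * j = i := by
  rw [h.ji, mul_assoc, h.jj, ← pow_add, show 3 + 2 = 4 + 1 from rfl, pow_add, h.i4, one_mul, pow_one]

theorem tti (h : TetRel i j t) : t * (t * i) = i * (j * (t * t)) := by
  rw [h.ti, ← mul_assoc, h.tj]; simp [mul_assoc]

theorem ttj (h : TetRel i j t) : t * (t * j) = i * (t * t) := by
  rw [h.tj, ← mul_assoc, ← mul_assoc, h.ti, mul_assoc j t, h.tj]
  simp only [← mul_assoc]
  rw [h.jij]

theorem val_ri (h : TetRel i j t) (x : Fin 4 × Fin 2 × Fin 3) :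
    val i j t x * i = val i j t (ri x) := by
  obtain ⟨a, b, c⟩ := x
  fin_cases b <;> fin_cases c <;> simp [val, ri, mul_assoc, pow_two, pow_one]
  · simpa using h.pow_add_fin a 1 1
  · rw [h.ti]
  · rw [h.tti, ← h.pow_add_fin a 1]; simp
  · rw [h.ji, ← h.pow_add_fin a 3]; rfl
  · rw [h.ti, ← mul_assoc j j, h.jj, ← h.pow_add_fin a 2]; rfl
  · rw [h.tti, ← mul_assoc j, ← mul_assoc (j * i), h.jij, ← h.pow_add_fin a 1]; simp

theorem val_rj (h : TetRel i j t) (x : Fin 4 × Fin 2 × Fin 3) :
    val i j t x * j = val i j t (rj x) := by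
  obtain ⟨a, b, c⟩ := x
  fin_cases b <;> fin_cases c <;> simp [val, rj, mul_assoc, pow_two, pow_one]
  · rw [h.tj, mul_assoc i, ← h.pow_add_fin a 1]; simp
  · rw [h.ttj, ← h.pow_add_fin a 1]; simp
  · rw [h.jj]; simpa using h.pow_add_fin a 2 1
  · rw [h.tj, ← mul_assoc j, ← mul_assoc j, h.jij, ← h.pow_add_fin a 1]; simp
  · rw [h.ttj, ← mul_assoc j, h.ji, mul_assoc, ← h.pow_add_fin a 3]; rfl

theorem val_rt (h : TetRel i j t) (x : Fin 4 × Fin 2 × Fin 3) :
    val i j t x * t = val i j t (rt x) := by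
  obtain ⟨a, b, c⟩ := x
  simp only [val, rt, mul_assoc, ← pow_succ]
  rw [pow_eq_pow_mod (c.1 + 1) h.t3]
  congr 3

theorem val_gens (h : TetRel i j t) :
    val i j t (1, 0, 0) = i ∧ val i j t (0, 1, 0) = j ∧ val i j t (0, 0, 1) = t := by
  simp [val]

/-- The range of the normal form is closed under right multiplication by the generators. -/
theorem range_top [Finite G] (h : TetRel i j t)
    (hgen : Subgroup.closure {i, j, t} = ⊤) : Function.Surjective (val i j t) := by
  intro g
  have hg : g ∈ Submonoid.closure ({i, j, t} : Set G) := by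
    have h1 : g ∈ (Subgroup.closure {i, j, t}).toSubmonoid := by rw [hgen]; trivial
    rwa [Subgroup.closure_toSubmonoid_of_finite] at h1
  induction hg using Submonoid.closure_induction_right with
  | one => exact ⟨(0, 0, 0), val_zero⟩
  | mul_right x hx y hy ih =>
    obtain ⟨u, rfl⟩ := ih
    rcases hy with rfl | rfl | rfl
    · exact ⟨ri u, (h.val_ri u).symm⟩
    · exact ⟨rj u, (h.val_rj u).symm⟩
    · exact ⟨rt u, (h.val_rt u).symm⟩

/-- Two groups of order 24 generated by triples with these relations are isomorphic. -/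
theorem mulEquiv {G' : Type*} [Group G'] [Finite G] [Finite G'] {i' j' t' : G'}
    (h : TetRel i j t) (h' : TetRel i' j' t')
    (hcard : Nat.card G = 24) (hcard' : Nat.card G' = 24)
    (hgen : Subgroup.closure {i, j, t} = ⊤) (hsurj' : Function.Surjective (val i' j' t')) :
    Nonempty (G ≃* G') := by
  have hX : Nat.card (Fin 4 × Fin 2 × Fin 3) = 24 := by simp
  have hs := h.range_top hgen
  let e := Equiv.ofBijective _ (hs.bijective_of_nat_card_le (by omega))
  let e' := Equiv.ofBijective _ (hsurj'.bijective_of_nat_card_le (by omega))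
  let f := e.symm.trans e'
  have hstep : ∀ (g g' : G) (gp : G') (R : Fin 4 × Fin 2 × Fin 3 → Fin 4 × Fin 2 × Fin 3),
      (∀ x, val i j t x * g' = val i j t (R x)) → (∀ x, val i' j' t' x * gp = val i' j' t' (R x)) →
      f (g * g') = f g * gp := by
    intro g g' gp R hR hR'
    obtain ⟨x, rfl⟩ := e.surjective g
    have h1 : e x * g' = e (R x) := hR x
    simp only [f, Equiv.trans_apply, Equiv.symm_apply_apply, h1]
    exact (hR' x).symm
  have hone : f 1 = 1 := by
    have h1 : e (0, 0, 0) = 1 := val_zero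
    change e' (e.symm 1) = 1
    rw [← h1, Equiv.symm_apply_apply]
    exact val_zero
  refine ⟨{ f with map_mul' := ?_ }⟩
  intro g y
  change f (g * y) = f g * f y
  have hy : y ∈ Submonoid.closure ({i, j, t} : Set G) := by
    have h1 : y ∈ (Subgroup.closure {i, j, t}).toSubmonoid := by rw [hgen]; trivial
    rwa [Subgroup.closure_toSubmonoid_of_finite] at h1
  induction hy using Submonoid.closure_induction_right with
  | one => rw [mul_one, hone, mul_one]
  | mul_right x hx s hs' ih =>
    rw [← mul_assoc]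
    rcases hs' with rfl | rfl | rfl
    · rw [hstep _ _ i' ri h.val_ri h'.val_ri, hstep _ _ i' ri h.val_ri h'.val_ri, ih, mul_assoc]
    · rw [hstep _ _ j' rj h.val_rj h'.val_rj, hstep _ _ j' rj h.val_rj h'.val_rj, ih, mul_assoc]
    · rw [hstep _ _ t' rt h.val_rt h'.val_rt, hstep _ _ t' rt h.val_rt h'.val_rt, ih, mul_assoc]

end TetRel

/-- Elements of `SL₂(3)` satisfying the relations. -/
def slI : SL(2, ZMod 3) := ⟨!![0, 2; 1, 0], by decide⟩
/-- The second generator. -/
def slJ : SL(2, ZMod 3) := ⟨!![1, 1; 1, 2], by decide⟩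
/-- The element of order three. -/
def slT : SL(2, ZMod 3) := ⟨!![1, 1; 0, 1], by decide⟩

theorem slRel : TetRel slI slJ slT :=
  ⟨by decide, by decide, by decide, by decide, by decide, by decide⟩

theorem card_SL2_3 : Nat.card SL(2, ZMod 3) = 24 := by
  rw [Nat.card_eq_fintype_card]; decide +kernel

theorem slVal_surjective : Function.Surjective (TetRel.val slI slJ slT) := by
  have h : ∀ g : SL(2, ZMod 3), ∃ x, TetRel.val slI slJ slT x = g := by decide +kernel
  exact h

/-- A group of order 24 with at most one involution and no normal subgroup of index two is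
isomorphic to `SL₂(3)`. -/
theorem mulEquiv_SL2_3 {G : Type*} [Group G] [Finite G] (hcard : Nat.card G = 24)
    (hinv : ∀ x y : G, orderOf x = 2 → orderOf y = 2 → x = y)
    (hno : ¬ ∃ N : Subgroup G, N.Normal ∧ N.index = 2) :
    Nonempty (G ≃* SL(2, ZMod 3)) := by
  classical
  haveI := Fact.mk Nat.prime_two
  haveI := Fact.mk Nat.prime_three
  let P : Sylow 2 G := default
  have hP : Nat.card (P : Subgroup G) = 8 := by
    rw [P.card_eq_multiplicity, hcard, show (24 : ℕ) = 2 ^ 3 * 3 by norm_num,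
      Nat.factorization_mul (by norm_num) (by norm_num), Nat.Prime.factorization_pow Nat.prime_two]
    simp [Nat.prime_three.factorization]
  have hPn : (P : Subgroup G).Normal := by
    rw [← Subgroup.normalizer_eq_top_iff]
    have hn : Nat.card (Sylow 2 G) ∣ 3 := by
      have h1 : (P : Subgroup G).index = 3 := by
        have := (P : Subgroup G).card_mul_index
        rw [hP, hcard] at this; omega
      exact h1 ▸ P.card_dvd_index
    rcases (Nat.dvd_prime Nat.prime_three).1 hn with h1 | h3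
    · exact Subgroup.index_eq_one.1 (P.card_eq_index_normalizer.symm.trans h1)
    exfalso
    let eX : Sylow 2 G ≃ Fin 3 := Finite.equivFinOfCardEq h3
    let φ : G →* Equiv.Perm (Fin 3) :=
      eX.permCongrHom.toMonoidHom.comp (MulAction.toPermHom G (Sylow 2 G))
    by_cases heven : 2 ∣ φ.ker.index
    · exact hno (exists_normal_index_two_of_perm_three φ heven)
    have hkle : φ.ker ≤ Subgroup.normalizer ((P : Subgroup G) : Set G) := by
      intro g hg
      rw [MonoidHom.mem_ker] at hg
      have h1 : MulAction.toPermHom G (Sylow 2 G) g = 1 := by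
        apply eX.permCongrHom.injective
        rw [map_one]; exact hg
      exact P.smul_eq_iff_mem_normalizer.1 (Equiv.ext_iff.1 h1 P)
    have hidx : (Subgroup.normalizer ((P : Subgroup G) : Set G)).index = 3 :=
      P.card_eq_index_normalizer.symm.trans h3
    have hPk : Nat.card φ.ker = 8 := by
      have h6 : φ.ker.index ∣ 6 := by
        rw [Subgroup.index_ker]
        have := Subgroup.card_subgroup_dvd_card φ.range
        rwa [Nat.card_perm, Nat.card_fin] at this
      have h3' : 3 ∣ φ.ker.index := by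
        have h := Subgroup.index_dvd_of_le hkle
        rwa [hidx] at h
      have hk := φ.ker.card_mul_index
      have := Nat.le_of_dvd (by norm_num) h6
      rw [hcard] at hk
      interval_cases h : φ.ker.index <;> omega
    have hkP : ∀ Q : Sylow 2 G, φ.ker ≤ (Q : Subgroup G) := fun Q => by
      have hpk : IsPGroup 2 φ.ker := IsPGroup.of_card (n := 3) (by rw [hPk]; norm_num)
      have h1 := Q.3 (hpk.to_sup_of_normal_left Q.2) le_sup_right
      exact le_sup_left.trans h1.le
    have heq : φ.ker = (P : Subgroup G) :=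
      Subgroup.eq_of_le_of_card_ge (hkP P) (by rw [hP, hPk])
    have : (Subgroup.normalizer ((P : Subgroup G) : Set G)).index = 1 := by
      rw [Subgroup.index_eq_one, Subgroup.normalizer_eq_top_iff, ← heq]
      infer_instance
    omega
  have hnc : ¬ IsCyclic (P : Subgroup G) := fun h =>
    hno (exists_normal_index_two_of_cyclic_sylow P h (by rw [hcard]; norm_num))
  obtain ⟨t, ht⟩ := exists_prime_orderOf_dvd_card' 3 (show 3 ∣ Nat.card G by rw [hcard]; norm_num)
  have ht3 : t ^ 3 = 1 := ht ▸ pow_orderOf_eq_one t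
  -- orders of elements of `P`
  have hord : ∀ x ∈ (P : Subgroup G), orderOf x = 1 ∨ orderOf x = 2 ∨ orderOf x = 4 := by
    intro x hx
    have h1 : orderOf (⟨x, hx⟩ : (P : Subgroup G)) ∣ 8 := hP ▸ orderOf_dvd_natCard _
    rw [Subgroup.orderOf_mk] at h1
    obtain ⟨k, hk, hk'⟩ := (Nat.dvd_prime_pow Nat.prime_two).1 (show orderOf x ∣ 2 ^ 3 from h1)
    interval_cases k
    · left; simpa using hk'
    · right; left; simpa using hk'
    · right; right; simpa using hk'
    · exfalso
      refine hnc (isCyclic_of_orderOf_eq_card ⟨x, hx⟩ ?_)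
      rw [Subgroup.orderOf_mk, hk', hP]
      rfl
  -- squares of elements of order four agree
  have hsq : ∀ x y : G, orderOf x = 4 → orderOf y = 4 → x ^ 2 = y ^ 2 := by
    intro x y hx hy
    apply hinv
    · rw [orderOf_pow' _ two_ne_zero, hx]; rfl
    · rw [orderOf_pow' _ two_ne_zero, hy]; rfl
  have hsq_mem : ∀ x y : G, orderOf x = 4 → orderOf y = 2 → y ∈ Subgroup.zpowers x := by
    intro x y hx hy
    rw [hinv y (x ^ 2) hy (by rw [orderOf_pow' _ two_ne_zero, hx]; rfl)]
    exact pow_mem (Subgroup.mem_zpowers x) 2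
  -- commuting elements of order four generate the same cyclic subgroup
  have hcommute : ∀ x y : G, orderOf x = 4 → orderOf y = 4 → Commute x y →
      y ∈ Subgroup.zpowers x := by
    intro x y hx hy hc
    have h1 : (y * x⁻¹) ^ 2 = 1 := by
      rw [(hc.symm.inv_right).mul_pow, inv_pow, hsq y x hy hx, mul_inv_cancel]
    have h2 : y * x⁻¹ ∈ Subgroup.zpowers x := by
      rcases (Nat.dvd_prime Nat.prime_two).1 (orderOf_dvd_of_pow_eq_one h1) with h | h
      · rw [orderOf_eq_one_iff.1 h]; exact one_mem _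
      · exact hsq_mem x _ hx h
    simpa using mul_mem h2 (Subgroup.mem_zpowers x)
  have hz4 : ∀ x : G, orderOf x = 4 → ∀ y ∈ Subgroup.zpowers x,
      y = 1 ∨ y = x ∨ y = x ^ 2 ∨ y = x ^ 3 := by
    intro x hx y hy
    have h1 := (isOfFinOrder_of_finite x).mem_zpowers_iff_mem_range_orderOf.1 hy
    simp only [Finset.mem_image, Finset.mem_range, hx] at h1
    obtain ⟨n, hn, rfl⟩ := h1
    interval_cases n <;> simp
  have hPconj : ∀ (g x : G), x ∈ (P : Subgroup G) → g * x * g⁻¹ ∈ (P : Subgroup G) :=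
    fun g x hx => hPn.conj_mem x hx g
  have hordconj : ∀ g x : G, orderOf (g * x * g⁻¹) = orderOf x := fun g x =>
    orderOf_eq_orderOf_iff.2 fun n => by rw [conj_pow, conj_eq_one_iff]
  -- `t` moves every cyclic subgroup of order four
  have hmove : ∀ x ∈ (P : Subgroup G), orderOf x = 4 → t * x * t⁻¹ ∉ Subgroup.zpowers x := by
    intro x hxP hx hmem
    have hc : Commute t x := by
      rcases hz4 x hx _ hmem with h | h | h | h
      · have := hordconj t x; rw [h, orderOf_one, hx] at this; omega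
      · exact mul_inv_eq_iff_eq_mul.1 h
      · have := hordconj t x; rw [h, orderOf_pow' _ two_ne_zero, hx] at this; norm_num at this
      · exfalso
        have h2 : t * (t * x * t⁻¹) * t⁻¹ = x := by
          rw [h, ← conj_pow, h, ← pow_mul, pow_eq_pow_mod _ (hx ▸ pow_orderOf_eq_one x)]
          norm_num
        have h3 : t ^ 3 * x * (t ^ 3)⁻¹ = t * x * t⁻¹ := by
          calc t ^ 3 * x * (t ^ 3)⁻¹ = t * (t * (t * x * t⁻¹) * t⁻¹) * t⁻¹ := by
                simp [pow_succ, mul_assoc]
            _ = _ := by rw [h2]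
        rw [ht3, inv_one, one_mul, mul_one, h] at h3
        have h4 : x ^ 2 = 1 := by
          calc x ^ 2 = x ^ 3 * x⁻¹ := by group
            _ = 1 := by rw [← h3, mul_inv_cancel]
        have := orderOf_dvd_of_pow_eq_one h4
        rw [hx] at this
        exact absurd (Nat.le_of_dvd two_pos this) (by norm_num)
    set C := Subgroup.centralizer {x}
    have h12 : 12 ∣ Nat.card C := by
      have h4 : 4 ∣ Nat.card C := by
        rw [← hx, ← Nat.card_zpowers]
        exact Subgroup.card_dvd_of_le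
          (Subgroup.zpowers_le.2 (Subgroup.mem_centralizer_singleton_iff.2 rfl))
      have h3 : 3 ∣ Nat.card C := by
        rw [← ht, ← Nat.card_zpowers]
        exact Subgroup.card_dvd_of_le
          (Subgroup.zpowers_le.2 (Subgroup.mem_centralizer_singleton_iff.2 hc.eq))
      exact Nat.Coprime.mul_dvd_of_dvd_of_dvd (show Nat.Coprime 4 3 by norm_num) h4 h3
    have hCi : C.index = 1 ∨ C.index = 2 := by
      have := C.card_mul_index
      obtain ⟨c, hc'⟩ := h12
      rw [hc', hcard] at this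
      exact (Nat.dvd_prime Nat.prime_two).1 ⟨c, by linarith⟩
    rcases hCi with h | h
    · have hcentral : ∀ g, Commute g x := fun g => Subgroup.mem_centralizer_singleton_iff.1
        (show g ∈ C by rw [Subgroup.index_eq_one.1 h]; trivial)
      have hle : (P : Subgroup G) ≤ Subgroup.zpowers x := by
        intro y hy
        rcases hord y hy with h1 | h1 | h1
        · rw [orderOf_eq_one_iff.1 h1]; exact one_mem _
        · exact hsq_mem x y hx h1
        · exact hcommute x y hx h1 (hcentral y).symm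
      have := Subgroup.card_le_of_le hle
      rw [hP, Nat.card_zpowers, hx] at this
      omega
    · exact hno ⟨C, Subgroup.normal_of_index_eq_two h, h⟩
  obtain ⟨i, hiP, hi⟩ : ∃ i ∈ (P : Subgroup G), orderOf i = 4 := by
    by_contra hne
    push Not at hne
    obtain ⟨z, hz⟩ := exists_prime_orderOf_dvd_card' 2 (show 2 ∣ Nat.card G by rw [hcard]; norm_num)
    have hle : (P : Subgroup G) ≤ Subgroup.zpowers z := by
      intro y hy
      rcases hord y hy with h | h | h
      · rw [orderOf_eq_one_iff.1 h]; exact one_mem _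
      · rw [hinv y z h hz]; exact Subgroup.mem_zpowers z
      · exact absurd h (hne y hy)
    have := Subgroup.card_le_of_le hle
    rw [hP, Nat.card_zpowers, hz] at this
    omega
  set j := t * i * t⁻¹ with hj
  have hjP : j ∈ (P : Subgroup G) := hPconj t i hiP
  have hj4 : orderOf j = 4 := (hordconj t i).trans hi
  have hjnot : j ∉ Subgroup.zpowers i := hmove i hiP hi
  -- the eight elements of `P`
  set C4 := Subgroup.zpowers i with hC4
  have hC4P : C4 ≤ (P : Subgroup G) := Subgroup.zpowers_le.2 hiP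
  have hC4idx : C4.relIndex (P : Subgroup G) = 2 := by
    have := Subgroup.relIndex_mul_relIndex ⊥ C4 (P : Subgroup G) bot_le hC4P
    rw [Subgroup.relIndex_bot_left, Subgroup.relIndex_bot_left, Nat.card_zpowers, hi, hP] at this
    omega
  have hcoset : ∀ g ∈ (P : Subgroup G), g ∉ C4 → g * j⁻¹ ∈ C4 := by
    intro g hg hgn
    have h1 := Subgroup.mul_mem_iff_of_index_two (H := C4.subgroupOf (P : Subgroup G)) hC4idx
      (a := ⟨g, hg⟩) (b := ⟨j⁻¹, inv_mem hjP⟩)
    simp only [Subgroup.mem_subgroupOf, inv_mem_iff, Subgroup.coe_mul] at h1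
    exact h1.2 ⟨fun h => absurd h hgn, fun h => absurd h hjnot⟩
  have hi4 : i ^ 4 = 1 := hi ▸ pow_orderOf_eq_one i
  have hjconj : j * i * j⁻¹ ∈ C4 := by
    by_contra hn
    have h1 := hcoset _ (hPconj j i hiP) hn
    have h2 : j * i * j⁻¹ * j⁻¹ = j * i * (j ^ 2)⁻¹ := by rw [pow_two]; group
    rw [h2, hsq j i hj4 hi] at h1
    have h3 : j ∈ C4 := by
      have h4 := mul_mem h1 (zpow_mem (Subgroup.mem_zpowers i) 1)
      have h5 : j * i * (i ^ 2)⁻¹ * i ^ (1 : ℤ) = j := by group
      rwa [h5] at h4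
    exact hjnot h3
  have hji : j * i = i ^ 3 * j := by
    rcases hz4 i hi _ hjconj with h | h | h | h
    · have := hordconj j i; rw [h, orderOf_one, hi] at this; omega
    · exact absurd (hcommute i j hi hj4 (mul_inv_eq_iff_eq_mul.1 h).symm) hjnot
    · have := hordconj j i; rw [h, orderOf_pow' _ two_ne_zero, hi] at this; norm_num at this
    · exact mul_inv_eq_iff_eq_mul.1 h
  set k := t * j * t⁻¹ with hk
  have hkP : k ∈ (P : Subgroup G) := hPconj t j hjP
  have hk4 : orderOf k = 4 := (hordconj t j).trans hj4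
  have hknj : k ∉ Subgroup.zpowers j := hmove j hjP hj4
  have htk : t * k * t⁻¹ = i := by
    rw [hk, hj]
    calc t * (t * (t * i * t⁻¹) * t⁻¹) * t⁻¹ = t ^ 3 * i * (t ^ 3)⁻¹ := by simp [pow_succ, mul_assoc]
      _ = i := by rw [ht3]; simp
  have hkni : k ∉ C4 := by
    intro h
    obtain ⟨n, hn⟩ := Subgroup.mem_zpowers_iff.1 h
    have h1 : i = j ^ n := by
      rw [hj, conj_zpow, hn, htk]
    apply hjnot
    refine hcommute i j hi hj4 ?_
    rw [h1]
    exact (Commute.self_zpow j n).symm
  obtain ⟨a, hka⟩ : ∃ a ∈ C4, k = a * j := ⟨_, hcoset k hkP hkni, by group⟩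
  have hgen : ∀ i₁ j₁ : G, i₁ ∈ (P : Subgroup G) → orderOf i₁ = 4 → j₁ ∈ (P : Subgroup G) →
      j₁ ∉ Subgroup.zpowers i₁ → Subgroup.closure {i₁, j₁, t} = ⊤ := by
    intro i₁ j₁ h1 h1' h2 h2'
    set H := Subgroup.closure {i₁, j₁, t}
    have hHi : i₁ ∈ H := Subgroup.subset_closure (by simp)
    have hHj : j₁ ∈ H := Subgroup.subset_closure (by simp)
    have hHt : t ∈ H := Subgroup.subset_closure (by simp)
    have h8 : 8 ∣ Nat.card H := by
      have hle : Subgroup.zpowers i₁ ≤ H ⊓ (P : Subgroup G) := Subgroup.zpowers_le.2 ⟨hHi, h1⟩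
      have hd : Nat.card ↥(H ⊓ (P : Subgroup G)) ∣ 8 := hP ▸ Subgroup.card_dvd_of_le inf_le_right
      have hne : Subgroup.zpowers i₁ ≠ H ⊓ (P : Subgroup G) := fun h => h2' (h ▸ ⟨hHj, h2⟩)
      have hge := Subgroup.card_dvd_of_le hle
      rw [Nat.card_zpowers, h1'] at hge
      have hne4 : Nat.card ↥(H ⊓ (P : Subgroup G)) ≠ 4 := fun h =>
        hne (Subgroup.eq_of_le_of_card_ge hle (by rw [Nat.card_zpowers, h1', h]))
      have h8' : Nat.card ↥(H ⊓ (P : Subgroup G)) = 8 := by
        have := Nat.le_of_dvd (by norm_num) hd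
        obtain ⟨c, hc⟩ := hge
        have hcle : c ≤ 2 := by omega
        have hcpos : 0 < Nat.card ↥(H ⊓ (P : Subgroup G)) := Nat.card_pos
        interval_cases c <;> omega
      exact h8' ▸ Subgroup.card_dvd_of_le inf_le_left
    have h3 : 3 ∣ Nat.card H := by
      rw [← ht, ← Nat.card_zpowers]; exact Subgroup.card_dvd_of_le (Subgroup.zpowers_le.2 hHt)
    refine Subgroup.eq_top_of_card_eq _ (Nat.dvd_antisymm (Subgroup.card_subgroup_dvd_card _) ?_)
    rw [hcard]
    exact Nat.Coprime.mul_dvd_of_dvd_of_dvd (show Nat.Coprime 8 3 by norm_num) h8 h3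
  have hjj : j * j = i ^ 2 := by rw [← pow_two, hsq j i hj4 hi]
  have hti : t * i = j * t := by rw [hj]; group
  rcases hz4 i hi a hka.1 with ha | ha | ha | ha
  · exact absurd (hka.2 ▸ by rw [ha, one_mul]; exact Subgroup.mem_zpowers j) hknj
  · refine TetRel.mulEquiv ⟨hi4, hjj, hji, hti, ?_, ht3⟩ slRel hcard card_SL2_3
      (hgen i j hiP hi hjP hjnot) slVal_surjective
    rw [← ha, ← hka.2, hk]; group
  · exfalso
    apply hknj
    rw [hka.2, ha, ← hjj]
    exact mul_mem (mul_mem (Subgroup.mem_zpowers j) (Subgroup.mem_zpowers j))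
      (Subgroup.mem_zpowers j)
  · -- replace `i, j` by their inverses
    have hk' : k = j * i := by rw [hka.2, ha, hji]
    refine TetRel.mulEquiv (i := i⁻¹) (j := j⁻¹) (t := t) ⟨?_, ?_, ?_, ?_, ?_, ht3⟩ slRel hcard
      card_SL2_3 (hgen i⁻¹ j⁻¹ (inv_mem hiP) (by rw [orderOf_inv, hi]) (inv_mem hjP)
        (by rwa [Subgroup.zpowers_inv, inv_mem_iff])) slVal_surjective
    · rw [inv_pow, hi4, inv_one]
    · rw [← mul_inv_rev, hjj, inv_pow]
    · rw [inv_pow]
      calc j⁻¹ * i⁻¹ = (i * j)⁻¹ := by group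
        _ = (j * i ^ 3)⁻¹ := by
          congr 1
          have h1 : j * i ^ 3 = (j * i * j⁻¹) ^ 3 * j := by rw [conj_pow, inv_mul_cancel_right]
          rw [h1, mul_inv_eq_iff_eq_mul.2 hji, ← pow_mul,
            pow_eq_pow_mod _ hi4, show 3 * 3 % 4 = 1 from rfl, pow_one]
        _ = _ := by group
    · rw [hj]; group
    · calc t * j⁻¹ = k⁻¹ * t := by rw [hk]; group
        _ = _ := by rw [hk']; group

end Cfsg.Agent.H78
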