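import Cfsg.Agent.H78.SolvableTransitiveLinear
import Cfsg.Agent.H78.OrderTwentyFour

/-!
Solvable linear groups regular on nonzero vectors (Zassenhaus).
-/

namespace Cfsg.Agent.H78

open scoped MatrixGroups

variable {q : ℕ} [Fact q.Prime] {V : Type*} [AddCommGroup V] [Module (ZMod q) V]
  {G : Type*} [Group G]

/-- A group free on nonzero vectors has at most one involution. -/
theorem involution_unique (ρ : G →* (V ≃ₗ[ZMod q] V)) (hρ : Function.Injective ρ)
    (hreg : ∀ v : V, v ≠ 0 → ∀ g : G, ρ g v = v → g = 1) {x y : G}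
    (hx : orderOf x = 2) (hy : orderOf y = 2) : x = y := by
  have key : ∀ z : G, orderOf z = 2 → ∀ v, ρ z v = -v := by
    intro z hz v
    by_contra hne
    have hzz : z * z = 1 := by rw [← pow_two, ← hz, pow_orderOf_eq_one]
    have hfix : ρ z (ρ z v + v) = ρ z v + v := by
      rw [map_add, ← LinearEquiv.mul_apply, ← map_mul, hzz, map_one, add_comm]
      rfl
    have h := hreg _ (fun h => hne (eq_neg_of_add_eq_zero_left h)) z hfix
    rw [h, orderOf_one] at hz
    omega
  exact hρ (LinearEquiv.ext fun v => by rw [key x hx v, key y hy v])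

/-- Regularity gives `|G| = q ^ d - 1`. -/
theorem card_eq_of_regular [Finite V] [Nontrivial V] [Finite G] (ρ : G →* (V ≃ₗ[ZMod q] V))
    (htrans : ∀ v w : V, v ≠ 0 → w ≠ 0 → ∃ g : G, ρ g v = w)
    (hreg : ∀ v : V, v ≠ 0 → ∀ g : G, ρ g v = v → g = 1) :
    Nat.card G = q ^ Module.finrank (ZMod q) V - 1 := by
  classical
  have : Module.Finite (ZMod q) V := Module.Finite.of_finite
  letI := Fintype.ofFinite V
  obtain ⟨v₀, hv₀⟩ := exists_ne (0 : V)
  have hb : Function.Bijective fun g : G => (⟨ρ g v₀, by simp [hv₀]⟩ : {v : V // v ≠ 0}) := by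
    refine ⟨fun a b hab => ?_, fun w => ?_⟩
    · have h : ρ a v₀ = ρ b v₀ := congrArg Subtype.val hab
      have h2 : b⁻¹ * a = 1 := hreg v₀ hv₀ _ (by
        rw [map_mul, LinearEquiv.mul_apply, h, ← LinearEquiv.mul_apply, ← map_mul, inv_mul_cancel,
          map_one]; rfl)
      exact (inv_mul_eq_one.1 h2).symm
    · obtain ⟨g, hg⟩ := htrans v₀ w.1 hv₀ w.2
      exact ⟨g, Subtype.ext hg⟩
  rw [Nat.card_eq_of_bijective _ hb, Nat.card_eq_fintype_card, Fintype.card_subtype_compl,
    Fintype.card_subtype_eq, ← Nat.card_eq_fintype_card,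
    Module.natCard_eq_pow_finrank (K := ZMod q) (V := V), Nat.card_zmod]

/-- A semilinear group of even order on a one-dimensional space has a normal subgroup of index
two. -/
theorem SemilinearRep.exists_index_two [Finite G] {ρ : G →* (V ≃ₗ[ZMod q] V)}
    (hρ : Function.Injective ρ) (h : SemilinearRep ρ) (heven : 2 ∣ Nat.card G) :
    ∃ N : Subgroup G, N.Normal ∧ N.index = 2 := by
  obtain ⟨F, _, _, e, he⟩ := h
  choose a σ hσ using he
  have hdef : ∀ g x, e (ρ g (e.symm x)) = a g * σ g x := fun g x => by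
    rw [hσ, e.apply_symm_apply]
  have ha : ∀ g, a g ≠ 0 := fun g h0 => by
    have h1 := hdef g 1
    rw [h0, zero_mul, map_eq_zero_iff _ e.injective, LinearEquiv.map_eq_zero_iff,
      map_eq_zero_iff _ e.symm.injective] at h1
    exact one_ne_zero h1
  have hcomp : ∀ g h x, a (g * h) * σ (g * h) x = a g * σ g (a h * σ h x) := by
    intro g h x
    rw [← hdef, ← hdef h x, ← hdef, e.symm_apply_apply, map_mul, LinearEquiv.mul_apply]
  let f : G →* (F ≃+* F) := MonoidHom.mk' σ fun g h => RingEquiv.ext fun x => by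
    have h1 := hcomp g h 1
    rw [map_one, mul_one, map_one, mul_one] at h1
    have h2 := hcomp g h x
    rw [h1, map_mul, ← mul_assoc] at h2
    exact mul_left_cancel₀ (mul_ne_zero (ha g) (by simpa using ha h)) h2
  have hker : ∀ g ∈ f.ker, ∀ x, σ g x = x := fun g hg x => by
    have h1 : σ g = 1 := hg
    rw [h1]; rfl
  let ψ : f.ker →* F :=
    { toFun := fun g => a g.1
      map_one' := by
        have h := hdef 1 1
        rw [map_one] at h
        change e (e.symm 1) = _ at h
        rw [e.apply_symm_apply, map_one, mul_one] at h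
        exact h.symm
      map_mul' := fun g h => by
        have h1 := hcomp g.1 h.1 1
        rwa [map_one, mul_one, map_one, mul_one, hker g.1 g.2] at h1 }
  have hψ : Function.Injective ψ := by
    intro g h hgh
    apply Subtype.ext
    apply hρ
    refine LinearEquiv.ext fun v => e.injective ?_
    rw [hσ, hσ, hker g.1 g.2, hker h.1 h.2]
    exact congrArg (· * e v) hgh
  obtain ⟨w, hw⟩ := IsCyclic.exists_generator (α := Fˣ)
  have hdet : ∀ s t : F ≃+* F, s w = t w → s = t := by
    intro s t hst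
    refine RingEquiv.ext fun x => ?_
    rcases eq_or_ne x 0 with rfl | hx
    · rw [map_zero, map_zero]
    · obtain ⟨k, hk⟩ := Subgroup.mem_zpowers_iff.1 (hw (Units.mk0 x hx))
      have hx' : x = (w : F) ^ k := by
        rw [← Units.val_zpow_eq_zpow_val, hk, Units.val_mk0]
      rw [hx', map_zpow₀, map_zpow₀, hst]
  have hcomm : ∀ s t : F ≃+* F, s * t = t * s := by
    intro s t
    apply hdet
    have hpow : ∀ u : F ≃+* F, ∃ k : ℤ, u w = (w : F) ^ k := by
      intro u
      have hne : u (w : F) ≠ 0 := by simp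
      obtain ⟨k, hk⟩ := Subgroup.mem_zpowers_iff.1 (hw (Units.mk0 _ hne))
      exact ⟨k, by rw [← Units.val_zpow_eq_zpow_val, hk, Units.val_mk0]⟩
    obtain ⟨k, hk⟩ := hpow s
    obtain ⟨l, hl⟩ := hpow t
    change s (t w) = t (s w)
    rw [hk, hl, map_zpow₀, map_zpow₀, hk, hl, ← zpow_mul, ← zpow_mul, mul_comm]
  have : Finite (F ≃+* F) :=
    Finite.of_injective (fun u : F ≃+* F => (u : F → F)) DFunLike.coe_injective
  by_cases hR : 2 ∣ Nat.card f.range
  · exact exists_normal_index_two_of_surjective (fun x y => Subtype.ext (hcomm x.1 y.1)) hR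
      f.rangeRestrict f.rangeRestrict_surjective
  · have := Fact.mk Nat.prime_two
    let P : Sylow 2 G := default
    have hPk : (P : Subgroup G) ≤ f.ker := by
      intro g hg
      obtain ⟨k, hk⟩ := (IsPGroup.iff_orderOf.1 P.2) ⟨g, hg⟩
      rw [Subgroup.orderOf_mk] at hk
      have h1 : orderOf (f.rangeRestrict g) ∣ 2 ^ k := hk ▸ orderOf_map_dvd _ g
      have h2 : orderOf (f.rangeRestrict g) ∣ Nat.card f.range := orderOf_dvd_natCard _
      have h3 : orderOf (f.rangeRestrict g) = 1 := by
        obtain ⟨j, -, hj⟩ := (Nat.dvd_prime_pow Nat.prime_two).1 h1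
        rcases j with _ | j
        · simpa using hj
        · exact absurd ((dvd_pow_self 2 j.succ_ne_zero).trans (hj ▸ h2)) hR
      exact congrArg Subtype.val (orderOf_eq_one_iff.1 h3)
    have hcyc : IsCyclic (P : Subgroup G) :=
      isCyclic_of_injective_ringHom (ψ.comp (Subgroup.inclusion hPk)) fun x y hxy =>
        Subgroup.inclusion_injective hPk (hψ hxy)
    exact exists_normal_index_two_of_cyclic_sylow P hcyc heven

/-- The first part: semilinear, or an exceptional group in dimension two with `q ≥ 5`. -/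
theorem solvable_regular_cases
    (hZ : ∀ a n : ℕ, 1 < a → 1 < n → ¬ (a = 2 ∧ n = 6) → ¬ (n = 2 ∧ ∃ m : ℕ, a + 1 = 2 ^ m) →
      ∃ r : ℕ, r.Prime ∧ r ∣ a ^ n - 1 ∧ ∀ k : ℕ, 0 < k → k < n → ¬ r ∣ a ^ k - 1)
    [Finite V] [Nontrivial V] [Finite G] (hsol : Group.IsSolvable G)
    (ρ : G →* (V ≃ₗ[ZMod q] V)) (hρ : Function.Injective ρ)
    (htrans : ∀ v w : V, v ≠ 0 → w ≠ 0 → ∃ g : G, ρ g v = w)
    (hreg : ∀ v : V, v ≠ 0 → ∀ g : G, ρ g v = v → g = 1) :
    SemilinearRep ρ ∨ ∃ A E : Subgroup G, ExceptionalData q V A E ∧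
      Module.finrank (ZMod q) V = 2 ∧ (q = 5 ∨ q = 7 ∨ q = 11 ∨ q = 23) := by
  have hG := card_eq_of_regular ρ htrans hreg
  rcases solvable_transitive_cases hZ hsol ρ hρ htrans with h | ⟨A, E, h⟩
  · exact Or.inl h
  refine Or.inr ⟨A, E, h, ?_⟩
  have hEcard : Nat.card E = Nat.card A * A.relIndex E := by
    rw [← Subgroup.relIndex_bot_left, ← Subgroup.relIndex_bot_left,
      Subgroup.relIndex_mul_relIndex ⊥ A E bot_le h.symp.le]
  rw [h.relIndex_eq] at hEcard
  rcases h.prime_cases with ⟨hd, hq⟩ | ⟨hd, hq⟩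
  · refine ⟨hd, ?_⟩
    rcases hq with hq3 | h'
    swap
    · exact h'
    exfalso
    subst hq3
    rw [hd] at hG hEcard
    norm_num at hG hEcard
    have hA2 : Nat.card A = 2 :=
      Nat.dvd_antisymm (by simpa using h.card_dvd) h.two_dvd
    rw [hA2] at hEcard
    have hEtop : E = ⊤ := Subgroup.eq_top_of_card_eq _ (by omega)
    obtain ⟨e, he⟩ : ∃ e : G, e ^ 2 ≠ 1 := by
      by_contra hne
      push Not at hne
      have hab : ∀ x y : G, x * y = y * x := fun x y => by
        have hi : ∀ z : G, z⁻¹ = z := fun z =>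
          inv_eq_of_mul_eq_one_right (by rw [← pow_two, hne])
        calc x * y = (x * y)⁻¹ := (hi _).symm
          _ = y * x := by rw [mul_inv_rev, hi, hi]
      have : E ≤ A := fun x hx =>
        h.centralizer_le (Subgroup.mem_centralizer_iff.2 fun y _ => hab y x)
      have := Subgroup.relIndex_eq_one.2 this
      rw [h.relIndex_eq, hd] at this
      norm_num at this
    have hdvd : orderOf e ∣ 8 := hG ▸ orderOf_dvd_natCard e
    have he4 : orderOf e = 4 ∨ orderOf e = 8 := by
      have hle := Nat.le_of_dvd (by norm_num) hdvd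
      have h1 : orderOf e ≠ 1 := fun h1 => he (by rw [orderOf_eq_one_iff.1 h1, one_pow])
      have h2 : orderOf e ≠ 2 := fun h1 => he (by rw [← h1, pow_orderOf_eq_one])
      interval_cases hh : orderOf e <;> omega
    set B := Subgroup.zpowers e with hB
    have hBn : B.Normal := by
      rcases he4 with h4 | h8
      · apply Subgroup.normal_of_index_eq_two
        have := B.card_mul_index
        rw [hB, Nat.card_zpowers, h4, hG] at this
        rw [hB]; omega
      · have : B = ⊤ := Subgroup.eq_top_of_card_eq _ (by rw [hB, Nat.card_zpowers, h8, hG])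
        rw [this]; infer_instance
    have hBc : ∀ a ∈ B, ∀ b ∈ B, a * b = b * a := by
      rintro _ ⟨i, rfl⟩ _ ⟨j, rfl⟩
      exact ((Commute.refl e).zpow_zpow i j).eq
    have hAB : A ≤ B := by
      intro x hx
      rcases eq_or_ne x 1 with rfl | hx1
      · exact one_mem B
      have hxo : orderOf x = 2 := by
        have hd' : orderOf (⟨x, hx⟩ : A) ∣ 2 := hA2 ▸ orderOf_dvd_natCard _
        rw [Subgroup.orderOf_mk] at hd'
        exact ((Nat.dvd_prime Nat.prime_two).1 hd').resolve_left
          (fun h1 => hx1 (orderOf_eq_one_iff.1 h1))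
      have h2 : orderOf (e ^ (orderOf e / 2)) = 2 := by
        rw [orderOf_pow' _ (by omega)]
        rcases he4 with h4 | h4 <;> rw [h4] <;> rfl
      rw [involution_unique ρ hρ hreg hxo h2]
      exact pow_mem (Subgroup.mem_zpowers e) _
    have hBA := h.maximal B hBn hBc hAB
    have : Nat.card B = 2 := by rw [hBA, hA2]
    rw [hB, Nat.card_zpowers] at this
    omega
  · exfalso
    subst hq
    rw [hd] at hG hEcard
    norm_num at hG hEcard
    obtain ⟨c, hc⟩ := h.two_dvd
    have h32 : 32 ∣ 80 := by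
      rw [← hG]
      exact (Dvd.intro c (by rw [hEcard, hc]; ring)).trans (Subgroup.card_subgroup_dvd_card E)
    omega

/-- The second part of the theorem in the exceptional cases. -/
theorem exceptional_regular_cases [Finite V] [Nontrivial V] [Finite G]
    (ρ : G →* (V ≃ₗ[ZMod q] V)) (hρ : Function.Injective ρ)
    (hreg : ∀ v : V, v ≠ 0 → ∀ g : G, ρ g v = v → g = 1)
    {A E : Subgroup G} (h : ExceptionalData q V A E) (hd : Module.finrank (ZMod q) V = 2)
    (hq : q = 5 ∨ q = 7 ∨ q = 11 ∨ q = 23) (hG : Nat.card G = q ^ 2 - 1) :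
    (∃ N : Subgroup G, N.Normal ∧ N.index = 2) ∨
      (q = 5 ∧ Nonempty (G ≃* SL(2, ZMod 3))) ∨
      (q = 11 ∧ Nonempty (G ≃* SL(2, ZMod 3) × Multiplicative (ZMod 5))) := by
  by_cases hno : ∃ N : Subgroup G, N.Normal ∧ N.index = 2
  · exact Or.inl hno
  refine Or.inr ?_
  rcases h.cases with ⟨-, -, φ, hφ⟩ | ⟨h4, -⟩
  swap
  · omega
  have hEcard : Nat.card E = Nat.card A * 4 := by
    have h1 : Nat.card E = Nat.card A * A.relIndex E := by
      rw [← Subgroup.relIndex_bot_left, ← Subgroup.relIndex_bot_left,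
        Subgroup.relIndex_mul_relIndex ⊥ A E bot_le h.symp.le]
    rw [h1, h.relIndex_eq, hd]; norm_num
  have hodd : ¬ 2 ∣ E.index := fun he => hno (exists_normal_index_two_of_perm_three φ (hφ ▸ he))
  have hidx : E.index ∣ 6 := by
    rw [← hφ, Subgroup.index_ker]
    have := Subgroup.card_subgroup_dvd_card φ.range
    rwa [Nat.card_perm, Nat.card_fin] at this
  have h13 : E.index = 1 ∨ E.index = 3 := by
    have := Nat.le_of_dvd (by norm_num) hidx
    interval_cases E.index <;> omega
  have hmul := E.card_mul_index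
  rw [hEcard, hG] at hmul
  have hA := h.card_dvd
  have h2A := h.two_dvd
  have hAle := Nat.le_of_dvd (by omega) hA
  rcases hq with rfl | rfl | rfl | rfl
  · refine Or.inl ⟨rfl, ?_⟩
    exact mulEquiv_SL2_3 (by rw [hG]; norm_num)
      (fun x y hx hy => involution_unique ρ hρ hreg hx hy) hno
  · norm_num at hmul hA hAle
    rcases h13 with h1 | h1 <;> rw [h1] at hmul <;>
      first | omega | (rw [show Nat.card A = 4 by omega] at hA; norm_num at hA)
  · refine Or.inr ⟨rfl, ?_⟩
    have := Fact.mk (show Nat.Prime 5 by norm_num)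
    norm_num at hmul hA hAle hG
    have hA10 : Nat.card A = 10 := by
      rcases h13 with h1 | h1 <;> rw [h1] at hmul <;> omega
    obtain ⟨⟨c, hcA⟩, hc'⟩ := exists_prime_orderOf_dvd_card' 5
      (show 5 ∣ Nat.card A by rw [hA10]; norm_num)
    rw [Subgroup.orderOf_mk] at hc'
    have hP5 : Nat.card (Subgroup.zpowers c) = 5 ^ (Nat.card G).factorization 5 := by
      rw [Nat.card_zpowers, hc', hG, show (120 : ℕ) = 5 ^ 1 * 24 by norm_num,
        Nat.factorization_mul (by norm_num) (by norm_num),
        Nat.Prime.factorization_pow (by norm_num)]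
      simp [Nat.factorization_eq_zero_of_not_dvd (show ¬ 5 ∣ 24 by norm_num)]
    let P : Sylow 5 G := Sylow.ofCard (Subgroup.zpowers c) hP5
    have hcent : ∀ x ∈ (P : Subgroup G), ∀ g : G, g * x = x * g := by
      intro x hx g
      have hxA : x ∈ A := Subgroup.zpowers_le.2 hcA hx
      exact Subgroup.mem_center_iff.1 (h.central hxA) g
    have hN : Subgroup.normalizer ((P : Subgroup G) : Set G) ≤
        Subgroup.centralizer ((P : Subgroup G) : Set G) := fun g _ =>
      Subgroup.mem_centralizer_iff.2 fun x hx => (hcent x hx g).symm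
    have hcompl := MonoidHom.ker_transferSylow_isComplement' P hN
    set K := (MonoidHom.transferSylow P hN).ker
    have hPcard : Nat.card (P : Subgroup G) = 5 := by
      change Nat.card (Subgroup.zpowers c) = 5
      rw [Nat.card_zpowers, hc']
    have hK : Nat.card K = 24 := by
      have := hcompl.card_mul_card
      rw [hPcard, hG] at this
      omega
    let μ : K × (P : Subgroup G) →* G :=
      MonoidHom.noncommCoprod K.subtype (P : Subgroup G).subtype
        fun x y => hcent y.1 y.2 x.1
    have hμ : Function.Bijective μ := hcompl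
    let eμ := MulEquiv.ofBijective μ hμ
    have hKno : ¬ ∃ N : Subgroup K, N.Normal ∧ N.index = 2 := by
      rintro ⟨N, hNn, hNi⟩
      refine hno ⟨N.comap ((MonoidHom.fst K (P : Subgroup G)).comp eμ.symm.toMonoidHom),
        hNn.comap _, ?_⟩
      rw [Subgroup.index_comap_of_surjective, hNi]
      exact Prod.fst_surjective.comp eμ.symm.surjective
    obtain ⟨eK⟩ := mulEquiv_SL2_3 hK (fun x y hx hy => Subtype.ext <|
      involution_unique ρ hρ hreg (by rw [Subgroup.orderOf_coe, hx])
        (by rw [Subgroup.orderOf_coe, hy])) hKno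
    have eP : (P : Subgroup G) ≃* Multiplicative (ZMod 5) :=
      mulEquivOfPrimeCardEq hPcard (by simp)
    exact ⟨eμ.symm.trans (MulEquiv.prodCongr eK eP)⟩
  · norm_num at hmul hA hAle
    rcases h13 with h1 | h1 <;> rw [h1] at hmul <;> omega

end Cfsg.Agent.H78
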